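import Cfsg.Agent.Mod.GlueB
import Cfsg.Agent.Blk.CyclicRank

/-!
# Local blocks below a maximal pair with abelian or cyclic defect group
-/

set_option autoImplicit false
set_option linter.unusedSectionVars false
set_option linter.style.haveILetI false

namespace Cfsg

open MonoidAlgebra GA Subgroup

universe u

variable {G : Type u} [Group G] [Finite G] {p : ℕ} [Fact p.Prime] {M : Ideal AlgInt}
  {B : Set (IrrCharacter G)} {P Q : Subgroup G} {e : (ResK M)[G]}

local notation "C(" Q ")" => Subgroup.centralizer ((Q : Subgroup G) : Set G)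
local notation "N(" Q ")" => Subgroup.normalizer ((Q : Subgroup G) : Set G)

theorem IsInducedBlock.isMaxPair_sub {c : Set (IrrCharacter C(P))}
    (hc : IsInducedBlock M C(P) c B) (hM : IsPModular p M) (hP : IsDefectGroup p M B P) :
    IsPBlock M c ∧ IsMaxPair p (blockIdem M B) P (subIdem M _ c) := by
  rw [isInducedBlock_iff hM] at hc
  exact ⟨hc.left, ⟨⟨hc.right.isBlockIdem hM, hc.left.isBPair hM hP.isPGroup,
    (induces_centralizer_iff_Br hM hP.isPGroup hc.left hc.right).1 hc⟩,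
    (hc.right.isDefectGroup_iff hM P).1 hP⟩⟩

theorem IsPModular.isInducedBlockIn_iff_bpLe (hM : IsPModular p M) (hP : IsPGroup p P)
    (hab : P ≤ C(P)) (hQ : Q ≤ P) {c : Set (IrrCharacter C(P))} (hc : IsPBlock M c)
    {f : Set (IrrCharacter C(Q))} : IsInducedBlockIn M C(Q) C(P) c f ↔
      IsPBlock M f ∧ BPLe p Q (subIdem M _ f) P (subIdem M _ c) := by
  haveI := hM.charP
  have h1 : P ≤ C(Q) := hab.trans (centralizer_anti hQ)
  have h2 : ∀ hf : IsPBlock M f, IsInducedBlockIn M C(Q) C(P) c f ↔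
      BPLe p Q (subIdem M _ f) P (subIdem M _ c) := fun hf => by
    have h3 := hf.isBPair hM (hP.to_le hQ)
    rw [isInducedBlockIn_iff hM (centralizer_anti hQ), induces_inclusion_iff_Br hM _ hP h1
      (inf_eq_left.2 (centralizer_anti hQ)).symm hc hf]
    exact ⟨fun h => BPNormal.bpLe ⟨h3, hc.isBPair hM hP, hQ,
      h1.trans (centralizer_le_normalizer' Q), fixedBy_anti h1 h3.mem_fixedBy_centralizer, h⟩,
      fun h => (h.bpNormal (hc.isBPair hM hP) (h1.trans (centralizer_le_normalizer' Q))).br⟩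
  exact ⟨fun h => ⟨h.2.1, (h2 h.2.1).1 h⟩, fun h => (h2 h.1).2 h.2⟩

theorem normalizer_le_normalizer_of_isCyclic [IsCyclic P] (hQ : Q ≤ P) : N(P) ≤ N(Q) := by
  intro x hx
  obtain ⟨u, rfl⟩ := (Subgroup.isCyclic_iff_exists_zpowers_eq_top P).1 inferInstance
  obtain ⟨r, hr⟩ := mem_zpowers_iff.1 (conj_mem_of_mem_normalizer hx (mem_zpowers u))
  rw [← cjS_eq_self_iff]
  refine eq_of_cjS_le (cjS_le_iff_forall.2 fun y hy => ?_)
  obtain ⟨t, rfl⟩ := hQ hy
  have : x * u ^ t * x⁻¹ = (u ^ t) ^ r := by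
    rw [← conj_zpow, ← hr, ← zpow_mul, ← zpow_mul, mul_comm]
  exact this ▸ zpow_mem hy r

theorem GA.IsMaxPair.stab_eq_sup {k : Type*} [Field k] [CharP k p] {b e f : k[G]}
    (hP : IsMaxPair p b P e) (hab : P ≤ C(P)) (hf : BPLe p Q f P e)
    (hN : N(P) ⊓ cjStab e ≤ N(Q)) : N(Q) ⊓ cjStab f = (N(P) ⊓ cjStab e) ⊔ C(Q) := by
  refine le_antisymm (fun g hg => ?_) (sup_le (fun t ht => ⟨hN ht, ?_⟩)
    (hf.left hP.pair).isInertial_stab.centralizer_le)
  · have h1 : P ≤ C(Q) := hab.trans (centralizer_anti hf.le)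
    obtain ⟨c, hc, h2⟩ := hP.exists_mul_mem_stab ((hf.bFus_iff hP.pair hg.1).2 hg.2) h1
      (by rwa [cjS_of_mem_normalizer hg.1])
    rw [cjS_of_mem_normalizer hg.1] at hc
    rw [← inv_mul_cancel_left c g]
    exact mul_mem (mem_sup_right (inv_mem hc)) (mem_sup_left h2)
  · exact (hf.bFus_iff hP.pair (hN ht)).1 (bFus_of_mem_stab hP.pair hf.le ht.1 ht.2)

theorem GA.IsMaxPair.inertial_of_isCyclic {b : (ResK M)[G]} (hP : IsMaxPair p b P e)
    (hM : IsPModular p M) [IsCyclic P] (hP1 : P ≠ ⊥) :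
    ∃ μ : (N(P) ⊓ cjStab e : Subgroup G) →* (ZMod p)ˣ, μ.ker = (C(P)).subgroupOf _ := by
  obtain ⟨Z, hZP, hZc, -⟩ := exists_min_subgroup_of_isCyclic hP.pair.isPGroup hP1
  have hZ1 : Z ≠ ⊥ := fun h => by
    rw [h, card_bot] at hZc
    exact (Fact.out : p.Prime).one_lt.ne hZc
  obtain ⟨μ, hμ⟩ := exists_monoidHom_units_of_card_eq hZc (ZMod p)
  refine ⟨μ.comp (inclusion (inf_le_left.trans (normalizer_le_normalizer_of_isCyclic hZP))),
    Subgroup.ext fun x => (hμ _).trans ⟨fun h => ?_, fun h => centralizer_anti hZP h⟩⟩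
  exact hP.stab_inf_centralizer_le hM hZP hZ1 ⟨x.2, h⟩

end Cfsg
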