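import Cfsg.Agent.Blk.CycRankB
import Cfsg.Agent.Blk.Principal
import Cfsg.Agent.GA.NilpBlock

/-!
# Blocks of minimal dimension are nilpotent (Linckelmann)
-/

set_option autoImplicit false
set_option linter.unusedSectionVars false
set_option linter.style.haveILetI false

namespace Cfsg

open MonoidAlgebra GA MulAction Module Matrix

universe u v w

section Perm

variable {p : ℕ} [Fact p.Prime] {H : Type u} [Group H] [Finite H] {X : Type v} [MulAction H X]
  {k : Type w} [Field k] [CharP k p]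

theorem exists_invariant_fun (hH : IsPGroup p H) {W : Submodule k (X → k)}
    (hW : ∀ h : H, ∀ f ∈ W, (fun x => f (h • x)) ∈ W) {f : X → k} (hf : f ∈ W) (h0 : f ≠ 0) :
    ∃ g ∈ W, g ≠ 0 ∧ ∀ (h : H) x, g (h • x) = g x := by
  letI : DistribMulAction H (X → k) :=
    { smul := fun h f x => f (h⁻¹ • x)
      one_smul := fun f => funext fun x => congrArg f (by simp)
      mul_smul := fun a b f => funext fun x => congrArg f (by simp [mul_smul])
      smul_zero := fun _ => rfl
      smul_add := fun _ _ _ => rfl }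
  obtain ⟨g, h1, h2, h3⟩ := exists_fixed_mem_closure_orbit hH (prime_nsmul_eq_zero (k := k) p) h0
  refine ⟨g, (AddSubgroup.closure_le W.toAddSubgroup).2 ?_ h1, h2, fun h x => ?_⟩
  · rintro _ ⟨h, rfl⟩
    exact hW h⁻¹ f hf
  · have := congrFun (h3 h⁻¹) x
    rwa [show (h⁻¹ • g) x = g (h⁻¹⁻¹ • x) from rfl, inv_inv] at this

variable [Fintype X] {e : Matrix X X k}

theorem mulVec_comp_smul (hinv : ∀ (h : H) x y, e (h • x) (h • y) = e x y) (h : H) (f : X → k) :
    e *ᵥ (fun y => f (h • y)) = fun x => (e *ᵥ f) (h • x) := funext fun x => by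
  simp only [mulVec, dotProduct]
  rw [← Equiv.sum_comp (toPerm h) fun y => e (h • x) y * f y]
  exact Finset.sum_congr rfl fun y _ => by rw [toPerm_apply, hinv]

theorem exists_fixed_of_mulVec_ne_zero (hH : IsPGroup p H)
    (hinv : ∀ (h : H) x y, e (h • x) (h • y) = e x y) {L : Subgroup H} {f : X → k} {x : X}
    (hx : L ≤ stabilizer H x) (hf : ∀ h ∈ L, ∀ y, f (h • y) = f y) (h0 : (e *ᵥ f) x ≠ 0) :
    ∃ y, L ≤ stabilizer H y ∧ e x y ≠ 0 ∧ f y ≠ 0 := by
  classical
  rw [mulVec, dotProduct, sum_eq_sum_fixed (hH.to_subgroup L) (prime_nsmul_eq_zero (k := k) p) _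
    (fun _ _ _ => Finset.mem_univ _) _ (fun u y _ => by
      rw [Subgroup.smul_def, hf u u.2, ← hinv u x y, mem_stabilizer_iff.1 (hx u.2)])] at h0
  obtain ⟨y, h1, h2⟩ := Finset.exists_ne_zero_of_sum_ne_zero h0
  exact ⟨y, fun h hh => (Finset.mem_filter.1 h1).2 ⟨h, hh⟩, mul_ne_zero_iff.1 h2⟩

/-- A summand of a permutation module of a `p`-group whose dimension is at most the least possible
orbit length is a transitive permutation module. -/
theorem exists_orbit_of_rank_le (hH : IsPGroup p H)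
    (hinv : ∀ (h : H) x y, e (h • x) (h • y) = e x y) (hidem : e * e = e) (h0 : e ≠ 0) {m : ℕ}
    (hm : ∀ x y, e x y ≠ 0 → Nat.card (stabilizer H x ⊓ stabilizer H y : Subgroup H) ≤ m)
    (hr : e.rank * m ≤ Nat.card H) :
    ∃ y₀ : X, Nat.card (stabilizer H y₀) ≤ m ∧ ∀ x x', e x x' ≠ 0 →
      ∃ h : H, stabilizer H x ⊓ stabilizer H x' ≤ stabilizer H (h • y₀) := by
  classical
  obtain ⟨z, ⟨z', hz'⟩, hz0, hz⟩ : ∃ z ∈ LinearMap.range e.mulVecLin, z ≠ 0 ∧
      ∀ (h : H) x, z (h • x) = z x := by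
    obtain ⟨f, hf⟩ : ∃ f, e *ᵥ f ≠ 0 := by
      by_contra! h
      exact h0 (Matrix.ext fun x y => by simpa using congrFun (h (Pi.single y 1)) x)
    refine exists_invariant_fun hH ?_ ⟨f, rfl⟩ hf
    rintro h _ ⟨f, rfl⟩
    exact ⟨_, mulVec_comp_smul hinv h f⟩
  have hez : e *ᵥ z = z := by
    rw [← hz', mulVecLin_apply, mulVec_mulVec, hidem]
  obtain ⟨y₀, h1, h2⟩ : ∃ y₀, z y₀ ≠ 0 ∧ e *ᵥ (fun y => if y ∈ orbit H y₀ then 1 else 0) ≠ 0 := by
    by_contra! h
    refine hz0 (hez.symm.trans (funext fun x => ?_))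
    rw [mulVec, dotProduct, ← Finset.sum_fiberwise Finset.univ (Quotient.mk (orbitRel H X))]
    refine Finset.sum_eq_zero fun ω _ => ?_
    have h3 : ∀ y, Quotient.mk (orbitRel H X) y = ω ↔ y ∈ orbit H ω.out := fun y => by
      rw [← orbitRel_apply, ← Quotient.eq, Quotient.out_eq]
    rw [Finset.sum_congr rfl (g := fun y => e x y * z ω.out) fun y hy => by
      obtain ⟨h, rfl⟩ := (h3 y).1 (Finset.mem_filter.1 hy).2
      rw [hz], ← Finset.sum_mul]
    by_cases h4 : z ω.out = 0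
    · rw [h4, mul_zero]
    have h5 := congrFun (h _ h4) x
    simp only [mulVec, dotProduct, mul_ite, mul_one, mul_zero, ← h3] at h5
    rw [Finset.sum_filter, h5, Pi.zero_apply, zero_mul]
  have h3 : Nat.card (stabilizer H y₀) ≤ m := by
    obtain ⟨y, h3, h4, -⟩ := exists_fixed_of_mulVec_ne_zero hH hinv (le_refl (stabilizer H y₀))
      (fun h _ => hz h) (by rwa [hez])
    have := hm _ _ h4
    rwa [inf_eq_left.2 h3] at this
  refine ⟨y₀, h3, fun x x' hx => ?_⟩
  let T := Function.ExtendByZero.linearMap k (Subtype.val : orbit H y₀ → X)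
  have hT : ∀ f, f ∈ LinearMap.range T ↔ ∀ y ∉ orbit H y₀, f y = 0 := fun f =>
    ⟨by rintro ⟨g, rfl⟩ y hy; exact Function.extend_val_apply' hy, fun h => ⟨f ∘ Subtype.val,
      funext fun y => by
        by_cases hy : y ∈ orbit H y₀
        · exact Function.extend_val_apply hy
        · exact (Function.extend_val_apply' hy).trans (h y hy).symm⟩⟩
  have hTs : ∀ h : H, ∀ f ∈ LinearMap.range T, (fun x => f (h • x)) ∈ LinearMap.range T :=
    fun h f hf => (hT _).2 fun y hy => (hT _).1 hf _ fun h1 => hy (by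
      simpa using mem_orbit_of_mem_orbit h⁻¹ h1)
  have hinj : ∀ f ∈ LinearMap.range T, e *ᵥ f = 0 → f = 0 := fun f hf h4 => by
    by_contra h5
    obtain ⟨g, ⟨h6, h7⟩, h8, h9⟩ := exists_invariant_fun hH
      (W := LinearMap.range T ⊓ LinearMap.ker e.mulVecLin) (fun h f hf => ⟨hTs h f hf.1, by
        have := mulVec_comp_smul hinv h f
        rw [show e *ᵥ f = 0 from hf.2] at this
        exact this⟩) ⟨hf, h4⟩ h5
    have h10 : g = g y₀ • fun y => if y ∈ orbit H y₀ then 1 else 0 := funext fun y => by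
      by_cases hy : y ∈ orbit H y₀
      · obtain ⟨h, rfl⟩ := hy
        simp [h9]
      · simp [hy, (hT _).1 h6 y hy]
    have h11 : e *ᵥ g = 0 := h7
    rw [h10, mulVec_smul, smul_eq_zero, or_iff_left h2] at h11
    exact h8 (by rw [h10, h11, zero_smul])
  have hle : LinearMap.range (e.mulVecLin ∘ₗ T) = LinearMap.range e.mulVecLin := by
    refine Submodule.eq_of_le_of_finrank_le (LinearMap.range_comp_le_range _ _) ?_
    rw [LinearMap.finrank_range_of_inj (f := e.mulVecLin ∘ₗ T)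
      ((injective_iff_map_eq_zero _).2 fun f hf => funext fun y => by
        have := congrFun (hinj _ ⟨f, rfl⟩ hf) y
        exact (Subtype.val_injective.extend_apply f 0 y).symm.trans this),
      finrank_fintype_fun_eq_card, ← Nat.card_eq_fintype_card]
    refine Nat.le_of_mul_le_mul_right (a := e.rank) (((Nat.mul_le_mul_left _ h3).trans hr).trans_eq
      ?_) (Nat.card_pos (α := stabilizer H y₀))
    rw [← Nat.card_prod, Nat.card_congr (orbitProdStabilizerEquivGroup H y₀)]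
  obtain ⟨f, hf⟩ : e *ᵥ Pi.single x' 1 ∈ LinearMap.range (e.mulVecLin ∘ₗ T) := hle ▸ ⟨_, rfl⟩
  replace hf : e *ᵥ T f = fun y => e y x' := hf.trans (by ext; simp)
  obtain ⟨y, h4, -, h5⟩ := exists_fixed_of_mulVec_ne_zero hH hinv (f := T f)
    (inf_le_left (b := stabilizer H x')) (fun h hh => congrFun (sub_eq_zero.1 (hinj _
      (sub_mem (hTs h _ ⟨f, rfl⟩) ⟨f, rfl⟩) (by
        rw [mulVec_sub, mulVec_comp_smul hinv, hf, sub_eq_zero]
        exact funext fun y => by rw [← hinv h y, mem_stabilizer_iff.1 hh.2])))) (by rwa [hf])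
  obtain ⟨h, rfl⟩ : y ∈ orbit H y₀ := by
    by_contra h6
    exact h5 ((hT _).1 ⟨f, rfl⟩ y h6)
  exact ⟨h, h4⟩

end Perm

variable {G : Type u} [Group G] [Finite G] {p : ℕ} [Fact p.Prime]

local notation "C(" Q ")" => Subgroup.centralizer ((Q : Subgroup G) : Set G)

/-- A block idempotent `b` with `dim kGb ≤ |S|² / |P|` is nilpotent. -/
theorem GA.IsDefGrp.isNilpIn_of_finrank_le {k : Type w} [Field k] [CharP k p] {b : k[G]}
    (hb : IsBlockIdem ⊤ b) {P : Subgroup G} (hP : IsDefGrp p ⊤ b P)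
    (h : finrank k (LinearMap.range (LinearMap.mulLeft k b)) * Nat.card P ≤
      (p ^ (Nat.card G).factorization p) ^ 2) : IsNilpIn p ⊤ b := by
  classical
  letI := Fintype.ofFinite G
  have hfix : b ∈ fixedBy k ⊤ := (mem_Zalg.1 hb.mem).2
  rw [isNilpIn_top_iff hb]
  intro Q f hf x hx _ hreg
  obtain ⟨S, hS, hQS⟩ := exists_isSylowIn_ge hf.pair.isPGroup le_top
  obtain ⟨g, -, hPS⟩ := hS.exists_cjS_le hP.isPGroup le_top
  replace hP := hP.conj hfix (Subgroup.mem_top g)
  rw [← card_cjS g] at h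
  generalize cjS g P = P at h hP hPS
  letI : MulAction (S × S) G :=
    { smul := fun h y => h.1 * y * (h.2 : G)⁻¹
      one_smul := fun y => show ((1 : S) : G) * y * ((1 : S) : G)⁻¹ = y by simp
      mul_smul := fun a c y => show ((a.1 * c.1 : S) : G) * y * ((a.2 * c.2 : S) : G)⁻¹ =
        a.1 * (c.1 * y * (c.2 : G)⁻¹) * (a.2 : G)⁻¹ by simp [mul_assoc] }
  have hs : ∀ (h : S × S) (y : G), h • y = h.1 * y * (h.2 : G)⁻¹ := fun _ _ => rfl
  let e := LinearMap.toMatrix (basis G k) (basis G k) (LinearMap.mulLeft k b)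
  have he : ∀ y z, e y z = b.coeff (y * z⁻¹) := fun y z => by
    refine (LinearMap.toMatrix_apply ..).trans ?_
    change (b * single z 1).coeff y = _
    simp
  have hinj : ∀ y : G, Function.Injective fun h : stabilizer (S × S) y => (h.1.1 : G) := by
    intro y a c hac
    have h1 := (mem_stabilizer_iff.1 a.2).trans (mem_stabilizer_iff.1 c.2).symm
    rw [hs, hs, show (a.1.1 : G) = c.1.1 from hac, mul_right_inj, _root_.inv_inj] at h1
    exact Subtype.ext (Prod.ext (Subtype.ext hac) (Subtype.ext h1))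
  obtain ⟨y₀, h1, h2⟩ := exists_orbit_of_rank_le (H := S × S) (e := e) (m := Nat.card P)
    (IsPGroup.of_card (n := _ + _) (by rw [Nat.card_prod, hS.card_eq, pow_add])) (fun h y z => by
      rw [he, he, hs, hs, ← coeff_conj_of_mem_fixedBy hfix (Subgroup.mem_top (h.1 : G)) (y * z⁻¹)]
      congr 1
      group) (by rw [← LinearMap.toMatrix_comp, ← LinearMap.mulLeft_mul, hb.idem]) (fun h0 => by
      refine hb.ne_zero (ext_coeff fun y => ?_)
      have := he y 1
      rw [h0, inv_one, mul_one] at this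
      exact this.symm) (fun y z h0 => by
      rw [he] at h0
      refine le_trans ?_ (hP.card_le (Q := S ⊓ Subgroup.centralizer {y * z⁻¹}) le_top
        (hS.isPGroup.to_le inf_le_left) (GA.Br_ne_zero_iff.2
          ⟨_, mem_centralizer_iff_le.2 inf_le_right, h0⟩))
      refine Nat.card_le_card_of_injective (fun h => ⟨h.1.1, h.1.1.2,
        Subgroup.mem_centralizer_singleton_iff.2 ?_⟩) fun a c hac => ?_
      · have h3 := mem_stabilizer_iff.1 h.2.1
        have h4 := mem_stabilizer_iff.1 h.2.2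
        rw [hs] at h3 h4
        calc _ = (h.1.1 * y * (h.1.2 : G)⁻¹) * (h.1.1 * z * (h.1.2 : G)⁻¹)⁻¹ * h.1.1 := by group
          _ = _ := by rw [h3, h4]
      · exact Subtype.ext (Subtype.ext_iff.1 (@hinj y ⟨a.1, a.2.1⟩ ⟨c.1, c.2.1⟩
          (Subtype.ext_iff.1 hac :)) :)) (by
      rw [Matrix.rank_eq_finrank_range_toLin _ (basis G k) (basis G k), toLin_toMatrix,
        Nat.card_prod, hS.card_eq, Subgroup.card_top, ← sq]
      exact h)
  obtain ⟨c, hc, hc0⟩ := GA.Br_ne_zero_iff.1 hP.br_ne_zero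
  obtain ⟨a, ha⟩ := h2 c 1 (by rwa [he, inv_one, mul_one])
  have h3 : ∀ h ∈ stabilizer (S × S) (a • y₀), h.1 = h.2 := by
    let δ : P → stabilizer (S × S) (a • y₀) := fun w => ⟨(⟨w, hPS w.2⟩, ⟨w, hPS w.2⟩), ha
      ⟨mem_centralizer_sub_conj.1 hc w w.2, by simp [hs]⟩⟩
    have h4 : Function.Bijective δ := (Function.Injective.bijective_of_nat_card_le (fun w w' h =>
      Subtype.ext (congrArg (fun h : stabilizer (S × S) (a • y₀) => (h.1.1 : G)) h))) (by
        rwa [stabilizer_smul_eq_stabilizer_map_conj, Subgroup.card_map_of_injective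
          (MulAut.conj a).injective])
    intro h hh
    obtain ⟨w, hw⟩ := h4.2 ⟨h, hh⟩
    rw [← show (δ w).1 = h from congrArg Subtype.val hw]
  obtain ⟨d, hd, hd0⟩ := GA.Br_ne_zero_iff.1 hf.Br_ne_zero
  obtain ⟨r, hr⟩ := h2 (x * d * x⁻¹ * x) x (by
    rwa [he, mul_inv_cancel_right, coeff_conj_of_mem_fixedBy hfix (Subgroup.mem_top x)])
  refine mem_centralizer_of_conj_eq (u := (r.1 * a.1⁻¹ * (r.2 * a.2⁻¹)⁻¹ : S)) hreg
    (isPElt_of_mem hS.isPGroup (Subtype.prop _)) hx fun w hw => ?_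
  have h4 := hr (x := (⟨_, hQS (conj_mem_of_mem_normalizer hx hw)⟩, ⟨w, hQS hw⟩)) ⟨by
    change x * w * x⁻¹ * (x * d * x⁻¹ * x) * w⁻¹ = _
    nth_rw 2 [← mem_centralizer_sub_conj.1 hd w hw]
    group, by
    change x * w * x⁻¹ * x * w⁻¹ = _
    group⟩
  have h5 := congrArg Subtype.val (h3 ((r * a⁻¹)⁻¹ * (⟨_, hQS (conj_mem_of_mem_normalizer hx hw)⟩,
    ⟨w, hQS hw⟩) * (r * a⁻¹)) (by
      rw [mem_stabilizer_iff, mul_smul, mul_smul, mul_smul r, inv_smul_smul, h4, inv_smul_eq_iff,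
        mul_smul, inv_smul_smul]))
  simp only [Prod.fst_mul, Prod.snd_mul, Prod.fst_inv, Prod.snd_inv, Subgroup.coe_mul,
    Subgroup.coe_inv] at h5 ⊢
  calc _ = (r.1 * (a.1 : G)⁻¹) * ((r.1 * (a.1 : G)⁻¹)⁻¹ * (x * w * x⁻¹) * (r.1 * (a.1 : G)⁻¹)) *
      (r.1 * (a.1 : G)⁻¹)⁻¹ := by group
    _ = _ := by rw [h5]; group

variable {M : Ideal AlgInt} {B : Set (IrrCharacter G)}

theorem IsPBlock.finrank_range_mulLeft_eq (hB : IsPBlock M B) (hM : IsPModular p M) :
    finrank (ResK M) (LinearMap.range (LinearMap.mulLeft (ResK M) (blockIdem M B))) =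
      ∑ᶠ χ ∈ B, charDegree χ.1 ^ 2 := by
  letI := Fintype.ofFinite G
  have e : LinearMap.mulLeft (ResK M) (blockIdem M B) =
      (Representation.leftRegular (ResK M) G).asAlgebraHom (blockIdem M B) := by
    refine LinearMap.ext fun y => ?_
    rw [Representation.asAlgebraHom_ofMulAction_smul_eq_mul, LinearMap.mulLeft_apply]
  have h := isCharacter_regCharB.charExt_idem hM (hB.blockIdemC_mem_intGA hM)
    (blockIdemC_mul_self B)
  rw [charExt_apply, Finset.sum_eq_single 1 (fun g _ hg => by rw [regCharB_of_ne_one hg, mul_zero])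
    (by simp), regCharB_one, mul_comm] at h
  rw [e, finrank_range_idem_eq_sum hM _ (hB.isBlockIdem hM).idem, brauerChar_leftRegular hM]
  simp only [decNum_pRegularPart]
  apply Nat.cast_injective (R := ℂ)
  rw [finsum_charDegree_sq_eq]
  push_cast
  exact h.symm

end Cfsg
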