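import Cfsg.Agent.Mod.Nilp
import Cfsg.Agent.Blk.SubBound

/-!
# The action of the linear characters of `P / foc(F)` on a block (Robinson)
-/

set_option autoImplicit false
set_option linter.unusedSectionVars false
set_option linter.style.haveILetI false

namespace Cfsg

open MonoidAlgebra GA MulAction

universe u v

variable {G : Type u} [Group G] [Finite G] {p : ℕ} [Fact p.Prime] {M : Ideal AlgInt}
  {B : Set (IrrCharacter G)} {P : Subgroup G} {e : (ResK M)[G]}

local notation "C(" Q ")" => Subgroup.centralizer ((Q : Subgroup G) : Set G)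

theorem dvd_card_of_forall_dvd_index {L : Type u} [Group L] {X : Type v} [MulAction L X] [Finite X]
    {n : ℕ} (h : ∀ x : X, n ∣ (stabilizer L x).index) : n ∣ Nat.card X := by
  letI := Fintype.ofFinite (orbitRel.Quotient L X)
  rw [Nat.card_congr (selfEquivSigmaOrbits L X), Nat.card_sigma]
  refine Finset.dvd_sum fun ω _ => ?_
  rw [Nat.card_coe_set_eq, ← index_stabilizer]
  exact h _

namespace IsPModular

variable (hM : IsPModular p M) (hB : IsPBlock M B)
  (hP : haveI := hM.charP; IsMaxPair p (blockIdem M B) P e)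
include hM hB hP

theorem exists_irr_starC_linear {lam : P →* ℂˣ} (hl : IsFStable p P e fun u => lam u)
    {χ : IrrCharacter G} (hχ : χ ∈ B) : ∃ ψ ∈ B, ψ.1 = starC p M P e χ.1 (fun u => lam u) ∧
      charDegree ψ.1 = charDegree χ.1 := by
  have hc := χ.isClassFunction
  have h1 : starC p M P e χ.1 (fun u => lam u) 1 = χ.1 1 := by
    rw [hM.starC_apply_one hB hP hl hc, blockPart_irr_of_mem hχ, map_one, Units.val_one, one_mul]
  have hirr : IsIrrCharacter G (starC p M P e χ.1 fun u => lam u) := by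
    refine (hM.isGen_starC hB hP hl (IrrCharacter.ofLinear lam).isCharacter.isGen
      χ.isCharacter.isGen).isIrr_of_ip_self_eq_one ?_ ?_
    · rw [hM.ip_starC hl hc (hM.isClassFunction_starC hl hc), hM.starC_starC hl.star hl hc,
        show (star fun u => (lam u : ℂ)) * (fun u => (lam u : ℂ)) = 1 from funext fun u => by
          have := congrFun (congrArg Subtype.val (IrrCharacter.bar_ofLinear lam)) u
          refine (congrArg (· * (lam u : ℂ)) this).trans ?_
          simp [IrrCharacter.ofLinear_val],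
        hM.starC_one hB hP hc, blockPart_irr_of_mem hχ, χ.ip_self]
    · rw [h1, χ.isCharacter.apply_one]
      exact_mod_cast Nat.zero_le _
  refine ⟨⟨_, hirr⟩, ?_, rfl, by unfold charDegree; rw [← h1]⟩
  by_contra h
  have h1 := blockPart_irr_of_notMem h
  rw [hM.blockPart_starC hB hP hl hc] at h1
  have h2 := IrrCharacter.ip_self (⟨_, hirr⟩ : IrrCharacter G)
  simp only [h1, ip_zero_left, zero_ne_one] at h2

theorem relIndex_dvd_card_height {K Z : Subgroup P} (hK : commutator P ≤ K)
    (hF : ∀ u, ∀ v ∈ fClass p P e u, u⁻¹ * v ∈ K) {h : ℕ}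
    (hZ : ∀ u ∈ Z, ∀ χ ∈ B, blockHeight p B χ.1 = h →
      starC p M P e χ.1 ((fClass p P e u).indicator 1) ≠ 0) :
    K.relIndex Z ∣ Nat.card {χ : IrrCharacter G // χ ∈ B ∧ blockHeight p B χ.1 = h} := by
  haveI := hM.charP
  let ann : Subgroup P → Subgroup (P →* ℂˣ) := fun K =>
    { carrier := {lam | ∀ x ∈ K, lam x = 1}
      mul_mem' := fun ha hb x hx => by rw [MonoidHom.mul_apply, ha x hx, hb x hx, mul_one]
      one_mem' := fun _ _ => rfl
      inv_mem' := fun ha x hx => by rw [MonoidHom.inv_apply, ha x hx, inv_one] }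
  have hs : ∀ lam : ann K, IsFStable p P e fun u => lam.1 u := fun lam u v hv => by
    have := lam.2 _ (hF u v hv)
    rw [map_mul, map_inv, inv_mul_eq_one] at this
    simp only [this]
  choose ψ h1 h2 h3 using fun (lam : ann K)
    (χ : {χ : IrrCharacter G // χ ∈ B ∧ blockHeight p B χ.1 = h}) =>
    hM.exists_irr_starC_linear hB hP (hs lam) χ.2.1
  letI : MulAction (ann K) {χ : IrrCharacter G // χ ∈ B ∧ blockHeight p B χ.1 = h} :=
    { smul := fun lam χ => ⟨ψ lam χ, h1 lam χ, by
        rw [blockHeight_def, h3, ← blockHeight_def, χ.2.2]⟩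
      one_smul := fun χ => Subtype.ext (Subtype.ext ((h2 1 χ).trans
        ((hM.starC_one hB hP χ.1.isClassFunction).trans (blockPart_irr_of_mem χ.2.1))))
      mul_smul := fun a b χ => Subtype.ext (Subtype.ext ((h2 _ χ).trans (((h2 a _).trans (by
        change starC p M P e (ψ b χ).1 _ = _
        rw [h2, hM.starC_starC (hs a) (hs b) χ.1.isClassFunction]
        congr 1)).symm))) }
  haveI : K.Normal := Subgroup.Normal.of_commutator_le _ hK
  have h4 : ((ann (K ⊔ Z)).subgroupOf (ann K)).index = K.relIndex Z := by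
    have h5 : ann (K ⊔ Z) ≤ ann K := fun lam h x hx => h x (Subgroup.mem_sup_left hx)
    have h6 := ((ann (K ⊔ Z)).subgroupOf (ann K)).card_mul_index
    rw [Nat.card_congr (Subgroup.subgroupOfEquivOfLe h5).toEquiv,
      show Nat.card (ann (K ⊔ Z)) = _ from
        card_linear_trivial_on_of_commutator_le (hK.trans le_sup_left),
      show Nat.card (ann K) = _ from card_linear_trivial_on_of_commutator_le hK,
      ← Subgroup.relIndex_mul_index (le_sup_left : K ≤ K ⊔ Z), Subgroup.relIndex_sup_left,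
      mul_comm] at h6
    exact Nat.eq_of_mul_eq_mul_right (Nat.pos_of_ne_zero Subgroup.index_ne_zero_of_finite) h6
  refine dvd_card_of_forall_dvd_index (L := ann K) fun χ => h4 ▸ Subgroup.index_dvd_of_le
    fun lam hl => ?_
  have h5 : starC p M P e χ.1.1 (fun u => lam.1 u) = χ.1.1 :=
    (h2 lam χ).symm.trans (congrArg (fun x => x.1.1) (mem_stabilizer_iff.1 hl))
  refine (sup_le (b := Z) (c := lam.1.ker) lam.2 fun u hu => ?_ :)
  have h6 := hM.starC_starC (hP.pair.isFStable_indicator u) (hs lam) χ.1.isClassFunction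
  rw [h5, show (fClass p P e u).indicator 1 * (fun u => (lam.1 u : ℂ)) =
      (lam.1 u : ℂ) • (fClass p P e u).indicator 1 from funext fun v => by
        by_cases hv : v ∈ fClass p P e u
        · simpa [hv] using hs lam u v hv
        · simp [hv], starC_smul_right, ← sub_eq_zero] at h6
  nth_rw 1 [← one_smul ℂ (starC p M P e χ.1.1 _)] at h6
  rw [← sub_smul, smul_eq_zero, or_iff_left (hZ u hu χ.1 χ.2.1 χ.2.2), sub_eq_zero] at h6
  exact Units.val_eq_one.1 h6.symm

theorem starC_indicator_ne_zero_of_center {u : P} (hu : (u : G) ∈ C(P)) {χ : IrrCharacter G}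
    (hχ : χ ∈ B) : starC p M P e χ.1 ((fClass p P e u).indicator 1) ≠ 0 := by
  haveI := hM.charP
  have h := isSec_centralizer_zpowers (G := G) (isPElt_of_mem hP.pair.isPGroup u.2)
  obtain ⟨b, hb, hle⟩ := h.exists_bpLe hM hP.pair u.2
  have h1 : P ≤ C(Subgroup.zpowers (u : G)) := by
    rw [centralizer_zpowers_eq]
    exact mem_centralizer_iff_le.1 hu
  have h2 := ((hb.isDefectGroup_subgroupOf_iff hM h1).2 (hP.isDefGrp_of_le_centralizer hle
    (hle.left hP.pair).isInertial_centralizer h1)).card_eq hb hM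
  rw [Nat.card_congr (Subgroup.subgroupOfEquivOfLe h1).toEquiv,
    ((hB.isDefectGroup_iff hM P).2 hP.defect).card_eq hB hM] at h2
  intro h0
  refine h.subPart_ne_zero_of_major hM (hM.induces_of_bpLe hB hP h hb hle)
    (Nat.pow_right_injective hM.prime.two_le h2.symm) hχ ?_
  rw [← h.subPart_subG hM hb, ← hM.starC_indicator hP h hb hle χ.isClassFunction, h0,
    subPart_zero]

end IsPModular

theorem GA.IsPairFusion.focal {k : Type v} [Field k] [CharP k p] {e : k[G]} {F : FusionSystem P}
    (hF : IsPairFusion p P e F) (hP : IsBPair p P e) :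
    commutator P ≤ F.focalSubgroup.subgroupOf P ∧
      ∀ u, ∀ v ∈ fClass p P e u, u⁻¹ * v ∈ F.focalSubgroup.subgroupOf P := by
  have h : ∀ u, ∀ v ∈ fClass p P e u, u⁻¹ * v ∈ F.focalSubgroup.subgroupOf P := by
    rintro u v ⟨g, h1, h2⟩
    exact Subgroup.subset_closure ⟨_, _, ⟨u, Subgroup.mem_zpowers _⟩, hF.conjHom_mem h1,
      congrArg (_ * ·) h2⟩
  refine ⟨Subgroup.commutator_le.2 fun a _ b _ => ?_, h⟩
  have := h a⁻¹ _ (hP.conj_mem_fClass a⁻¹ b)
  rwa [inv_inv, ← mul_assoc, ← mul_assoc] at this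

end Cfsg
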